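import Cfsg.Agent.H376.Six.Def
import Cfsg.Agent.H411.Six.UpSp6
import Cfsg.Agent.H686.B6.LowSp
import Cfsg.Agent.H206.LowSp

/-!
# The facts about the element orders of `PSp₆(q)`, `q = 5 ^ m` or `q = 2 ^ m` (helper374)
-/

set_option autoImplicit false

namespace Cfsg.Agent.H374.S6

open Cfsg.Agent.H376.Six

theorem x5_sp {F : Type*} [Field F] [Fintype F] {m : ℕ} (hm : 1 ≤ m) (hF : Fintype.card F = 5 ^ m) :
    X5 (Fintype.card F) (Cfsg.PSp 3 F) where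
  pow := ⟨m, hm, hF⟩
  ub := fun g => Cfsg.Agent.H411.Six.ub_five hm hF g
  a := Cfsg.Agent.H686.B6.exists_minus hm hF
  b := Cfsg.Agent.H686.B6.exists_plus hF
  c := Cfsg.Agent.H686.B6.exists_sq hm hF
  d := Cfsg.Agent.H686.B6.exists_25 hm hF

theorem x2_sp {F : Type*} [Field F] [Fintype F] {m : ℕ} (hm : 2 ≤ m) (hF : Fintype.card F = 2 ^ m) :
    X2 (Fintype.card F) (Cfsg.PSp 3 F) where
  pow := ⟨m, hm, hF⟩
  ub := fun g => Cfsg.Agent.H411.Six.ub_two hm hF g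
  a := Cfsg.Agent.H206.LowSp.sp_a hF
  b := Cfsg.Agent.H206.LowSp.sp_b hF
  c := Cfsg.Agent.H206.LowSp.sp_c hF
  d := Cfsg.Agent.H206.LowSp.sp_d hF

end Cfsg.Agent.H374.S6
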